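import Cfsg.Agent.FGS4.KMinusL.Count
import Cfsg.Agent.S4487
import Cfsg.Agent.Core.Cores

/-!
# A criterion for all characters of positive defect to lie in the principal block
-/

set_option autoImplicit false
set_option linter.unusedSectionVars false
set_option linter.style.haveILetI false

namespace Cfsg.Agent.FGS4.SingleBlock

open Cfsg Cfsg.Agent Cfsg.Agent.Blocks

universe u

/-- A group with a normal `p`-subgroup containing its centraliser has a single block. -/
theorem sameBlock_of_constrained {C : Type u} [Group C] [Finite C] {p : ℕ} [hp : Fact p.Prime]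
    {M : Ideal AlgInt} (hM : IsPModular p M) {Q : Subgroup C} [hn : Q.Normal] (hQ : IsPGroup p Q)
    (hC : Subgroup.centralizer (Q : Set C) ≤ Q) (χ ψ : IrrCharacter C) :
    SameBlock M (χ : C → ℂ) (ψ : C → ℂ) := by
  have hle : Q ≤ pCore p C := le_sSup ⟨hn, hQ⟩
  refine S4487.result p M hM ?_ ?_ χ ψ
  · refine sSup_eq_bot.2 fun N hN => ?_
    haveI := hN.1
    obtain ⟨k, hk⟩ := hQ.exists_card_eq
    have hcop : (Nat.card N).Coprime (Nat.card Q) := hk ▸ hN.2.pow_right k
    have hd : N ⊓ Q = ⊥ := disjoint_iff.1 (Subgroup.disjoint_of_coprime_natCard hcop)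
    have hNC : N ≤ Subgroup.centralizer (Q : Set C) := fun x hx =>
      Subgroup.mem_centralizer_iff.2 fun y hy =>
        (Subgroup.commute_of_normal_of_disjoint N Q hN.1 hn (disjoint_iff.2 hd) x y hx hy).eq.symm
    rwa [inf_eq_left.2 (hNC.trans hC)] at hd
  · exact (Subgroup.centralizer_le (by exact_mod_cast hle)).trans (hC.trans hle)

variable {G : Type u} [Group G] [Fintype G] {p : ℕ} [hp : Fact p.Prime] {M : Ideal AlgInt}

/-- If every centraliser of an element of order `p` is constrained, characters outside the
principal block have defect zero. -/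
theorem defect_zero_of_not_principal (hM : IsPModular p M)
    (hloc : ∀ z : G, orderOf z = p → ∃ Q : Subgroup (Subgroup.centralizer ({z} : Set G)),
      Q.Normal ∧ IsPGroup p Q ∧
        Subgroup.centralizer (Q : Set (Subgroup.centralizer ({z} : Set G))) ≤ Q)
    (χ : IrrCharacter G) (hχ : χ ∉ principalBlock M G) :
    (charDegree (χ : G → ℂ)).factorization p = (Nat.card G).factorization p := by
  classical
  haveI : M.IsMaximal := hM.2.1
  have hpM := hM.2.2
  by_contra hne
  set B := blockOf M (χ : G → ℂ)
  have hB : IsPBlock M B := isPBlock_blockOf χ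
  have hd : 0 < blockDefect p B := by
    by_contra h0
    have h1 := degree_eq_height hpM hB (mem_blockOf_self χ)
    have h2 := charDegree_factorization_le (p := p) χ
    omega
  obtain ⟨D, hD⟩ := exists_isDefectGroup hpM hB
  obtain ⟨z, hz⟩ := exists_prime_orderOf_dvd_card' (G := D) p (by
    rw [card_defectGroup hpM hB hD]; exact dvd_pow_self p hd.ne')
  have hzo : orderOf (z : G) = p := by rw [Subgroup.orderOf_coe]; exact hz
  obtain ⟨Q, hQn, hQ, hC⟩ := hloc (z : G) hzo
  set C := Subgroup.centralizer ({(z : G)} : Set G)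
  obtain ⟨b, hind⟩ := KMinusL.exists_local hpM hB hD z.2
  haveI := Fintype.ofFinite C
  have hb : b = principalBlock M C := by
    obtain ⟨ξ, hξ⟩ := block_nonempty hind.1
    have h1 : SameBlock M ((oneChar C : IrrCharacter C) : C → ℂ) (ξ : C → ℂ) :=
      sameBlock_of_constrained hM hQ hC (oneChar C) ξ
    exact blocks_eq_of_inter (G := C) hind.1 (isPBlock_principal (G := C)) hξ h1
  have hP := (third_main C hpM ⟨_, hind⟩).2 hb
  exact hχ (isInducedBlock_unique C hpM hP hind ▸ mem_blockOf_self χ)

/-- All characters of a group with constrained `p`-local centralisers and without characters of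
defect zero lie in one block. -/
theorem sameBlock_of_no_defect_zero (hM : IsPModular p M)
    (hloc : ∀ z : G, orderOf z = p → ∃ Q : Subgroup (Subgroup.centralizer ({z} : Set G)),
      Q.Normal ∧ IsPGroup p Q ∧
        Subgroup.centralizer (Q : Set (Subgroup.centralizer ({z} : Set G))) ≤ Q)
    (hdz : ∀ χ : IrrCharacter G,
      (charDegree (χ : G → ℂ)).factorization p ≠ (Nat.card G).factorization p)
    (χ ψ : IrrCharacter G) : SameBlock M (χ : G → ℂ) (ψ : G → ℂ) := by
  haveI : M.IsMaximal := hM.2.1
  have h : ∀ φ : IrrCharacter G, φ ∈ principalBlock M G := fun φ =>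
    by_contra fun h => hdz φ (defect_zero_of_not_principal hM hloc φ h)
  exact sameBlock_of_mem isPBlock_principal (h χ) (h ψ)

end Cfsg.Agent.FGS4.SingleBlock
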