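import Cfsg.Agent.Chars.Linear
import Cfsg.Agent.Chars.Orth
import Cfsg.Agent.Chars2.Clifford
import Mathlib.GroupTheory.Sylow

/-!
# Lower bounds for the norm of a character on the elements of prime order
-/

set_option autoImplicit false
set_option linter.unusedSectionVars false
set_option linter.style.haveILetI false

namespace Cfsg.Agent.FGS4.SingleBlock

open Cfsg Cfsg.Agent
open scoped ComplexConjugate

universe u

/-- A character of a group of prime order `p` and degree `p q + r`. -/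
theorem prime_norm {P : Type u} [Group P] [Fintype P] {p : ℕ} [hp : Fact p.Prime]
    (hcard : Nat.card P = p) {f : P → ℂ} (hf : IsCharacter P f) (q r : ℕ) (hd : f 1 = (p * q + r : ℕ)) :
    (((p * q + r) ^ 2 : ℕ) : ℝ) + (r : ℝ) * ((p : ℝ) - r) ≤ ∑ y, Complex.normSq (f y) ∧
      (∑ y, Complex.normSq (f y) = (((p * q + r) ^ 2 : ℕ) : ℝ) + (r : ℝ) * ((p : ℝ) - r) →
        ∑ y, f y = (p * q : ℕ) ∨ ∑ y, f y = (p * (q + 1) : ℕ)) := by
  classical
  obtain ⟨c, hc⟩ := Chars2.exists_multiplicities hf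
  have hcomm : ∀ a b : P, a * b = b * a := fun a b => by
    haveI := isCyclic_of_prime_card hcard
    exact (IsMulCommutative.is_comm.comm a b)
  have h1 : ∀ φ : IrrCharacter P, (φ : P → ℂ) 1 = 1 := fun φ =>
    Chars.irr_apply_one_of_comm hcomm φ.2
  have hn : Fintype.card (IrrCharacter P) = p := by
    have := Chars.sum_sq_apply_one (G := P)
    simp only [h1, one_pow, Finset.sum_const, Finset.card_univ, nsmul_eq_mul, mul_one, hcard] at this
    exact_mod_cast this
  have hfs := Chars.eq_sum_classInner (Chars.isClassFunction_of_isCharacter hf)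
  simp only [hc] at hfs
  have hcd : ∑ φ, (c φ : ℤ) = (p : ℤ) * q + r := by
    have := congrFun hfs 1
    rw [hd] at this
    simp only [Finset.sum_apply, Pi.smul_apply, smul_eq_mul, h1, mul_one] at this
    have h : p * q + r = ∑ φ, c φ := by exact_mod_cast this
    exact_mod_cast h.symm
  have hsq : ∑ y, Complex.normSq (f y) = (p : ℝ) * ((∑ φ, (c φ : ℤ) ^ 2 : ℤ) : ℝ) := by
    have h2 : classInner f f = ∑ φ, (c φ : ℂ) * (c φ : ℂ) := by
      nth_rw 2 [hfs]
      rw [Chars.classInner_sum_right]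
      refine Finset.sum_congr rfl fun φ _ => ?_
      rw [Chars.classInner_smul_right, hc, map_natCast]
    rw [Chars.classInner_def, inv_mul_eq_iff_eq_mul₀ Chars.card_ne_zero, hcard] at h2
    simp only [Complex.mul_conj] at h2
    rw [← Complex.ofReal_inj]
    push_cast
    rw [h2]
    simp only [sq]
  set t : IrrCharacter P → ℤ := fun φ => ((c φ : ℤ) - q) * ((c φ : ℤ) - q - 1) with ht
  have ht0 : ∀ φ, 0 ≤ t φ := fun φ => by
    rcases le_or_gt ((c φ : ℤ) - q) 0 with h | h <;> simp only [ht] <;> nlinarith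
  have key : (p : ℤ) * (∑ φ, (c φ : ℤ) ^ 2) =
      ((p : ℤ) * q + r) ^ 2 + (r : ℤ) * ((p : ℤ) - r) + (p : ℤ) * ∑ φ, t φ := by
    have : ∑ φ, t φ = (∑ φ, (c φ : ℤ) ^ 2) - (2 * (q : ℤ) + 1) * (∑ φ, (c φ : ℤ))
        + (p : ℤ) * ((q : ℤ) * (q + 1)) := by
      rw [show (p : ℤ) * ((q : ℤ) * (q + 1)) = ∑ _φ : IrrCharacter P, (q : ℤ) * (q + 1) by
        simp [hn], Finset.mul_sum, ← Finset.sum_sub_distrib, ← Finset.sum_add_distrib]
      exact Finset.sum_congr rfl fun φ _ => by simp only [ht]; ring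
    rw [this, hcd]; ring
  have keyR := congrArg (fun z : ℤ => (z : ℝ)) key
  push_cast at keyR
  have hT : (0 : ℤ) ≤ ∑ φ, t φ := Finset.sum_nonneg fun φ _ => ht0 φ
  have hTR : (0 : ℝ) ≤ (p : ℝ) * ((∑ φ, t φ : ℤ) : ℝ) :=
    mul_nonneg (Nat.cast_nonneg _) (Int.cast_nonneg hT)
  push_cast at hsq hTR ⊢
  rw [hsq, keyR]
  refine ⟨by linarith, fun h => ?_⟩
  have hz : (∑ φ, t φ : ℤ) = 0 := by
    have : (p : ℝ) * ((∑ φ, t φ : ℤ) : ℝ) = 0 := by push_cast; linarith
    exact_mod_cast (mul_eq_zero.1 this).resolve_left (Nat.cast_ne_zero.2 hp.out.ne_zero)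
  set one : IrrCharacter P := ⟨fun _ => 1, Chars.isIrrCharacter_one⟩
  have hone := (Finset.sum_eq_zero_iff_of_nonneg fun φ _ => ht0 φ).1 hz one (Finset.mem_univ _)
  have hsum : ∑ y, f y = ((p * c one : ℕ) : ℂ) := by
    have := hc one
    rw [Chars.classInner_def, inv_mul_eq_iff_eq_mul₀ Chars.card_ne_zero, hcard] at this
    simpa [one] using this
  rcases mul_eq_zero.1 hone with h' | h'
  · left; rw [hsum, show c one = q by omega]; push_cast; rfl
  · right; rw [hsum, show c one = q + 1 by omega]; push_cast; rfl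

variable {G : Type u} [Group G] [Fintype G] [DecidableEq G] {p : ℕ} [hp : Fact p.Prime]

/-- A sum of a class function over the elements of order `p`, when Sylow subgroups have order `p`. -/
theorem sum_order_eq {R : Type*} [AddCommMonoid R] (F : G → R) (hF : ∀ g c, F (c * g * c⁻¹) = F g)
    (P : Sylow p G) (hP : Nat.card (P : Subgroup G) = p) [Fintype (P : Subgroup G)] :
    ∑ y ∈ Finset.univ.filter (fun y : G => orderOf y = p), F y =
      Nat.card (Sylow p G) • ∑ y ∈ (Finset.univ.filter (fun y : (P : Subgroup G) => y ≠ 1)), F y := by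
  classical
  have hcardQ : ∀ Q : Sylow p G, Nat.card (Q : Subgroup G) = p := fun Q => by
    rw [Q.card_eq_multiplicity, ← P.card_eq_multiplicity, hP]
  set S : Sylow p G → Finset G := fun Q =>
    Finset.univ.filter (fun y : G => y ∈ (Q : Subgroup G) ∧ y ≠ 1)
  have heq : ∀ (Q : Sylow p G) (y : G), y ∈ (Q : Subgroup G) → y ≠ 1 →
      (Q : Subgroup G) = Subgroup.zpowers y ∧ orderOf y = p := by
    intro Q y hy h1
    have hle : Subgroup.zpowers y ≤ (Q : Subgroup G) := Subgroup.zpowers_le.2 hy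
    have hd := Subgroup.card_dvd_of_le hle
    rw [Nat.card_zpowers, hcardQ] at hd
    rcases (Nat.dvd_prime hp.out).1 hd with h | h
    · exact absurd (orderOf_eq_one_iff.1 h) h1
    · exact ⟨(Subgroup.eq_of_le_of_card_ge hle (by rw [Nat.card_zpowers, hcardQ, h])).symm, h⟩
  have hpart : Finset.univ.filter (fun y : G => orderOf y = p) = Finset.univ.biUnion S := by
    ext y
    simp only [Finset.mem_filter, Finset.mem_univ, true_and, Finset.mem_biUnion, S]
    refine ⟨fun h => ?_, fun ⟨Q, hy, h1⟩ => (heq Q y hy h1).2⟩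
    obtain ⟨Q, hQ⟩ := IsPGroup.exists_le_sylow (IsPGroup.of_card (p := p) (n := 1)
      (G := Subgroup.zpowers y) (by rw [Nat.card_zpowers, h, pow_one]))
    exact ⟨Q, hQ (Subgroup.mem_zpowers y), fun h1 => hp.out.ne_one (h ▸ h1 ▸ orderOf_one)⟩
  rw [hpart, Finset.sum_biUnion]
  · have hconst : ∀ Q : Sylow p G, ∑ y ∈ S Q, F y = ∑ y ∈ S P, F y := by
      intro Q
      obtain ⟨g, rfl⟩ := MulAction.exists_smul_eq G P Q
      refine Finset.sum_nbij' (fun y => g⁻¹ * y * g) (fun y => g * y * g⁻¹) ?_ ?_ ?_ ?_ ?_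
      · intro y hy
        simp only [S, Finset.mem_filter, Finset.mem_univ, true_and] at hy ⊢
        obtain ⟨⟨z, hz, rfl⟩, h1⟩ := hy
        refine ⟨?_, fun h => h1 ?_⟩
        · show g⁻¹ * (g * z * g⁻¹) * g ∈ _
          rw [show g⁻¹ * (g * z * g⁻¹) * g = z by group]
          exact hz
        have := congrArg (fun w => g * w * g⁻¹) h
        simpa [mul_assoc] using this
      · intro y hy
        simp only [S, Finset.mem_filter, Finset.mem_univ, true_and] at hy ⊢
        refine ⟨⟨y, hy.1, by simp [MulAut.conj_apply]⟩, fun h => hy.2 ?_⟩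
        have := congrArg (fun w => g⁻¹ * w * g) h
        simpa [mul_assoc] using this
      · intro y _; simp [mul_assoc]
      · intro y _; simp [mul_assoc]
      · intro y _; have := hF y g⁻¹; simp only [inv_inv] at this; exact this.symm
    rw [Finset.sum_congr rfl fun Q _ => hconst Q, Finset.sum_const, Finset.card_univ,
      Nat.card_eq_fintype_card]
    congr 1
    refine Finset.sum_bij' (fun y hy => ⟨y, (Finset.mem_filter.1 hy).2.1⟩) (fun y _ => (y : G))
      ?_ ?_ ?_ ?_ ?_
    · intro y hy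
      exact Finset.mem_filter.2 ⟨Finset.mem_univ _, fun h => (Finset.mem_filter.1 hy).2.2
        (congrArg Subtype.val h)⟩
    · intro y hy
      exact Finset.mem_filter.2 ⟨Finset.mem_univ _, y.2, fun h => (Finset.mem_filter.1 hy).2
        (Subtype.ext h)⟩
    · intros; rfl
    · intros; rfl
    · intros; rfl
  · intro Q _ Q' _ hne
    refine Finset.disjoint_left.2 fun y hy hy' => hne (Sylow.ext ?_)
    simp only [S, Finset.mem_filter, Finset.mem_univ, true_and] at hy hy'
    exact (heq Q y hy.1 hy.2).1.trans (heq Q' y hy'.1 hy'.2).1.symm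

/-- The norm of a character on the elements of order `p`. -/
theorem order_norm {χ : G → ℂ} (hχ : IsCharacter G χ) (q r : ℕ) (hd : χ 1 = (p * q + r : ℕ))
    (P : Sylow p G) (hP : Nat.card (P : Subgroup G) = p) :
    (Nat.card (Sylow p G) : ℝ) * ((r : ℝ) * ((p : ℝ) - r)) ≤
        ∑ y ∈ Finset.univ.filter (fun y : G => orderOf y = p), Complex.normSq (χ y) ∧
      (∑ y ∈ Finset.univ.filter (fun y : G => orderOf y = p), Complex.normSq (χ y) =
          (Nat.card (Sylow p G) : ℝ) * ((r : ℝ) * ((p : ℝ) - r)) →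
        ∑ y ∈ Finset.univ.filter (fun y : G => orderOf y = p), χ y =
            (Nat.card (Sylow p G) : ℂ) * (-(r : ℂ)) ∨
          ∑ y ∈ Finset.univ.filter (fun y : G => orderOf y = p), χ y =
            (Nat.card (Sylow p G) : ℂ) * ((p : ℂ) - r)) := by
  classical
  haveI := Fintype.ofFinite (P : Subgroup G)
  have hcl := Chars.isClassFunction_of_isCharacter hχ
  rw [sum_order_eq (fun y => Complex.normSq (χ y)) (fun g c => by simp only [hcl g c]) P hP,
    sum_order_eq χ (fun g c => hcl g c) P hP, nsmul_eq_mul, nsmul_eq_mul]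
  have hres := prime_norm hP (Chars.isCharacter_restrict hχ (P : Subgroup G)) q r (by simpa using hd)
  have e1 : ∀ {R : Type} [AddCommGroup R] (F : ↥(P : Subgroup G) → R),
      ∑ y ∈ Finset.univ.filter (fun y : (P : Subgroup G) => y ≠ 1), F y = (∑ y, F y) - F 1 := by
    intro R _ F
    rw [Finset.filter_ne', Finset.sum_erase_eq_sub (Finset.mem_univ _)]
  rw [e1 (fun y => Complex.normSq (χ y)), e1 (fun y => χ (y : G))]
  have hn0 : (0 : ℝ) < (Nat.card (Sylow p G) : ℝ) := Nat.cast_pos.2 Nat.card_pos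
  simp only [Subgroup.coe_one, hd, Complex.normSq_natCast] at hres ⊢
  push_cast at hres ⊢
  refine ⟨mul_le_mul_of_nonneg_left (by nlinarith [hres.1]) hn0.le, fun h => ?_⟩
  have h' := mul_left_cancel₀ hn0.ne' h
  rcases hres.2 (by nlinarith [h']) with h2 | h2
  · left; rw [h2]; ring
  · right; rw [h2]; ring

end Cfsg.Agent.FGS4.SingleBlock
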