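import Cfsg.Agent.FGS4.SingleBlock.Crit
import Cfsg.Agent.FGS4.SingleBlock.Norms
import Cfsg.Agent.FGS4.SingleBlock.M22Facts

/-!
# M₂₂ has no character of 2-defect zero
-/

set_option autoImplicit false
set_option linter.unusedSectionVars false
set_option linter.style.haveILetI false

namespace Cfsg.Agent.FGS4.SingleBlock.M22

open Cfsg Cfsg.Agent
open scoped ComplexConjugate

/-- No character of M₂₂ has degree divisible by 128. -/
theorem no_defect_zero (χ : IrrCharacter Spor.M22) :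
    (charDegree (χ : Spor.M22 → ℂ)).factorization 2 ≠ (Nat.card Spor.M22).factorization 2 := by
  classical
  haveI := Fintype.ofFinite Spor.M22
  intro heq
  rw [M22_card, show (443520 : ℕ) = 2 ^ 7 * 3465 by norm_num, Nat.factorization_mul (by norm_num)
    (by norm_num), Finsupp.add_apply, Nat.prime_two.factorization_pow, Finsupp.single_eq_same,
    Nat.factorization_eq_zero_of_not_dvd (n := 3465) (by norm_num), add_zero] at heq
  obtain ⟨h1, hd0⟩ := Blocks.charDegree_eq χ.2
  set d := charDegree (χ : Spor.M22 → ℂ) with hd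
  have hdd : d ∣ 443520 := M22_card ▸ Blocks.charDegree_dvd χ.2
  obtain ⟨k, hk⟩ : 128 ∣ d := by
    have := Nat.ordProj_dvd d 2
    rw [heq] at this
    simpa using this
  -- the sum of squares
  have hnorm : ∑ g : Spor.M22, Complex.normSq ((χ : Spor.M22 → ℂ) g) = (443520 : ℝ) := by
    have := Chars.classInner_irrCharacter χ χ
    rw [if_pos rfl, Chars.classInner_def, inv_mul_eq_iff_eq_mul₀ Chars.card_ne_zero, mul_one,
      M22_card] at this
    simp only [Complex.mul_conj] at this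
    exact_mod_cast this
  haveI : Fact (Nat.Prime 5) := ⟨by norm_num⟩
  haveI : Fact (Nat.Prime 7) := ⟨by norm_num⟩
  haveI : Fact (Nat.Prime 11) := ⟨by norm_num⟩
  let P5 : Sylow 5 Spor.M22 := default
  let P7 : Sylow 7 Spor.M22 := default
  let P11 : Sylow 11 Spor.M22 := default
  obtain ⟨c5, n5⟩ := sylow_facts (p := 5) (m := 88704) (n := 20) (by simp) (by norm_num)
    (by norm_num) (by decide +kernel) P5
  obtain ⟨c7, n7⟩ := sylow_facts (p := 7) (m := 63360) (n := 21) (by simp) (by norm_num)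
    (by norm_num) (by decide +kernel) P7
  obtain ⟨c11, n11⟩ := sylow_facts (p := 11) (m := 40320) (n := 55) (by simp) (by norm_num)
    (by norm_num) (by decide +kernel) P11
  have e5 : Nat.card (Sylow 5 Spor.M22) = 22176 := by omega
  have e7 : Nat.card (Sylow 7 Spor.M22) = 21120 := by omega
  have e11 : Nat.card (Sylow 11 Spor.M22) = 8064 := by omega
  have hdeg : ∀ m : ℕ, (χ : Spor.M22 → ℂ) 1 = (m * (d / m) + d % m : ℕ) := fun m => by
    rw [Nat.div_add_mod]; exact h1
  have N5 := order_norm (Chars.irr_isCharacter χ) (d / 5) (d % 5) (hdeg 5) P5 c5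
  have N7 := order_norm (Chars.irr_isCharacter χ) (d / 7) (d % 7) (hdeg 7) P7 c7
  have N11 := order_norm (Chars.irr_isCharacter χ) (d / 11) (d % 11) (hdeg 11) P11 c11
  rw [e5] at N5
  rw [e7] at N7
  rw [e11] at N11
  set S : ℕ → Finset Spor.M22 := fun p => Finset.univ.filter fun y => orderOf y = p with hS
  set T : Finset Spor.M22 := insert 1 (S 5 ∪ S 7 ∪ S 11) with hT
  have hdis : Disjoint (S 5) (S 7) ∧ Disjoint (S 5 ∪ S 7) (S 11) ∧ (1 : Spor.M22) ∉ S 5 ∪ S 7 ∪ S 11 := by
    refine ⟨Finset.disjoint_left.2 fun y h h' => ?_, Finset.disjoint_left.2 fun y h h' => ?_, ?_⟩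
    · simp [hS] at h h'; omega
    · simp [hS] at h h'; omega
    · simp [hS]
  have hsplit : ∀ {R : Type} [AddCommMonoid R] (F : Spor.M22 → R),
      ∑ y ∈ T, F y = F 1 + (∑ y ∈ S 5, F y + ∑ y ∈ S 7, F y + ∑ y ∈ S 11, F y) := by
    intro R _ F
    rw [hT, Finset.sum_insert hdis.2.2, Finset.sum_union hdis.2.1, Finset.sum_union hdis.1]
  have hrest : 0 ≤ ∑ y ∈ Finset.univ \ T, Complex.normSq ((χ : Spor.M22 → ℂ) y) :=
    Finset.sum_nonneg fun y _ => Complex.normSq_nonneg _
  have htot := Finset.sum_sdiff (s₁ := T) (s₂ := Finset.univ) (Finset.subset_univ _)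
    (f := fun y => Complex.normSq ((χ : Spor.M22 → ℂ) y))
  rw [hnorm, hsplit, h1, Complex.normSq_natCast] at htot
  have hk5 : k ≤ 5 := by
    by_contra hk6
    have : (768 : ℝ) ≤ (d : ℝ) := by exact_mod_cast (show 768 ≤ d by omega)
    have h5 : 0 ≤ ∑ y ∈ S 5, Complex.normSq ((χ : Spor.M22 → ℂ) y) :=
      Finset.sum_nonneg fun y _ => Complex.normSq_nonneg _
    have h7 : 0 ≤ ∑ y ∈ S 7, Complex.normSq ((χ : Spor.M22 → ℂ) y) :=
      Finset.sum_nonneg fun y _ => Complex.normSq_nonneg _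
    have h11 : 0 ≤ ∑ y ∈ S 11, Complex.normSq ((χ : Spor.M22 → ℂ) y) :=
      Finset.sum_nonneg fun y _ => Complex.normSq_nonneg _
    nlinarith
  have hodd : k % 2 = 1 := by
    by_contra h
    have h2 : 256 ∣ d := by omega
    have : 256 ∣ 443520 := dvd_trans h2 hdd
    norm_num at this
  generalize hR : ∑ y ∈ Finset.univ \ T, Complex.normSq ((χ : Spor.M22 → ℂ) y) = R0 at htot hrest
  generalize hA5 : ∑ y ∈ S 5, Complex.normSq ((χ : Spor.M22 → ℂ) y) = A5 at htot
  generalize hA7 : ∑ y ∈ S 7, Complex.normSq ((χ : Spor.M22 → ℂ) y) = A7 at htot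
  generalize hA11 : ∑ y ∈ S 11, Complex.normSq ((χ : Spor.M22 → ℂ) y) = A11 at htot
  simp only [hS] at hA5 hA7 hA11
  rw [hA5] at N5
  rw [hA7] at N7
  rw [hA11] at N11
  obtain rfl | rfl | rfl : k = 1 ∨ k = 3 ∨ k = 5 := by omega
  · rw [hk] at N5 N7 N11 htot
    norm_num at N5 N7 N11 htot
    nlinarith [N5.1, N7.1, N11.1]
  · rw [hk] at N5 N7 N11 htot
    norm_num at N5 N7 N11 htot
    have z : ∑ y ∈ Finset.univ \ T, Complex.normSq ((χ : Spor.M22 → ℂ) y) = 0 := by
      rw [hR]; nlinarith [N5.1, N7.1, N11.1]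
    have s5 := N5.2 (by nlinarith [N5.1, N7.1, N11.1])
    have s7 := N7.2 (by nlinarith [N5.1, N7.1, N11.1])
    have s11 := N11.2 (by nlinarith [N5.1, N7.1, N11.1])
    have hv := (Finset.sum_eq_zero_iff_of_nonneg fun y _ => Complex.normSq_nonneg _).1 z
    have hsum := Finset.sum_sdiff (s₁ := T) (s₂ := Finset.univ) (Finset.subset_univ _)
      (f := (χ : Spor.M22 → ℂ))
    have hne : (χ : Spor.M22 → ℂ) ≠ (fun _ => 1) := fun e => by
      have := congrFun e 1
      rw [h1, hk] at this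
      norm_num at this
    have hz : ∑ y : Spor.M22, (χ : Spor.M22 → ℂ) y = 0 := by
      have := Chars.classInner_irr_of_ne χ.2 Chars.isIrrCharacter_one hne
      rw [Chars.classInner_def, mul_eq_zero] at this
      simpa using this.resolve_left (inv_ne_zero Chars.card_ne_zero)
    rw [Finset.sum_eq_zero (fun y hy => Complex.normSq_eq_zero.1 (hv y hy)), hsplit, hz, h1, hk,
      zero_add] at hsum
    rcases s5 with a | a <;> rcases s7 with b | b <;> rcases s11 with c | c <;>
      (simp only [hS] at hsum; rw [a, b, c] at hsum; norm_num at hsum)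
  · rw [hk] at N5 N7 N11 htot
    norm_num at N5 N7 N11 htot
    nlinarith [N5.1, N7.1, N11.1]

end Cfsg.Agent.FGS4.SingleBlock.M22
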